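/- COV tower (blueprints/COV.md): `G₂(q)`, `q` even, is covered by the conjugates of two proper subgroups. -/
import Cfsg.Agent.H60.CovSpec
import Cfsg.Agent.H35.Oct1

set_option autoImplicit false
open Cfsg.Lie H35.Oct

namespace H6.CovG2
variable {F : Type} [Field F]

/-- the trace -/
def tr : (Fin 8 → F) →ₗ[F] F where
  toFun x := x 0 + x 7
  map_add' x y := by simp; ring
  map_smul' r x := by simp; ring

/-- the norm -/
def nm (x : Fin 8 → F) : F := x 0 * x 7 - (x 1 * x 4 + x 2 * x 5 + x 3 * x 6)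

theorem tr_apply (x : Fin 8 → F) : tr x = x 0 + x 7 := rfl

theorem sq_eq (x : Fin 8 → F) : zornMul x x = tr x • x - nm x • one8 := by
  apply ext8 <;> simp [zm, tr_apply, nm, one8] <;> ring

theorem smul_sub' (g : G2 F) (x y : Fin 8 → F) : g • (x - y) = g • x - g • y := Matrix.mulVec_sub _ _ _

theorem inv_tn (g : G2 F) (x : Fin 8 → F) : tr (g • x) = tr x ∧ nm (g • x) = nm x := by
  have h := smul_mul g x x
  rw [sq_eq, sq_eq, smul_sub', smul_smul', smul_smul', smul_one8] at h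
  by_cases e : tr (g • x) = tr x
  · rw [e, sub_right_inj] at h
    exact ⟨e, by simpa [one8] using (congrFun h 0).symm⟩
  · have k : g • x = ((nm (g • x) - nm x) / (tr (g • x) - tr x)) • (one8 : Fin 8 → F) := by
      rw [div_eq_inv_mul, mul_smul, eq_inv_smul_iff₀ (sub_ne_zero.2 e), sub_smul, sub_smul,
        sub_eq_sub_iff_sub_eq_sub, h]
    have : g • x = x := by
      rw [smul_eq_iff_eq_inv_smul, smul_smul', smul_one8] at k
      rw [k, smul_smul', smul_one8]
    rw [this]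
    exact ⟨rfl, rfl⟩

/-- the stabiliser of `x` modulo the unit -/
def St (x : Fin 8 → F) : Subgroup (G2 F) where
  carrier := {g | ∃ c : F, g • x = x + c • one8}
  one_mem' := ⟨0, by simp⟩
  mul_mem' := by
    rintro g h ⟨c, e⟩ ⟨d, e'⟩
    exact ⟨c + d, by rw [mul_smul, e', smul_add', e, smul_smul', smul_one8, add_smul, add_assoc]⟩
  inv_mem' := by
    rintro g ⟨c, e⟩
    exact ⟨-c, by rw [inv_smul_eq_iff, smul_add', e, smul_smul', smul_one8, neg_smul, add_neg_cancel_right]⟩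

theorem St.conj {g k : G2 F} {x y : Fin 8 → F} (h : g ∈ St x) (c : F) (e : k • y = x + c • one8) :
    k⁻¹ * g * k⁻¹⁻¹ ∈ St y := by
  obtain ⟨d, h⟩ := h
  refine ⟨d, ?_⟩
  rw [inv_inv, mul_smul, mul_smul, inv_smul_eq_iff, smul_add', e, smul_add', h, smul_smul', smul_smul', smul_one8,
    smul_one8, add_right_comm]

theorem ex_st (g : G2 F) : ∃ x, tr x = 1 ∧ g ∈ St x := by
  by_contra n
  let ψ : ((Fin 8 → F) × F) →ₗ[F] (Fin 8 → F) :=
    ((Matrix.mulVecLin (g.1 : Matrix (Fin 8) (Fin 8) F) - LinearMap.id).coprod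
      (LinearMap.toSpanSingleton F _ one8))
  have ψe : ∀ x c, ψ (x, c) = g • x - x + c • one8 := fun x c => rfl
  obtain ⟨μ, hμ⟩ : tr ∘ₗ LinearMap.fst F _ F ∈ ψ.dualMap.range := by
    rw [LinearMap.range_dualMap_eq_dualAnnihilator_ker, Submodule.mem_dualAnnihilator]
    rintro ⟨x, c⟩ e
    by_contra k
    refine n ⟨(tr x)⁻¹ • x, by rw [map_smul]; exact inv_mul_cancel₀ k, (tr x)⁻¹ * -c, ?_⟩
    rw [smul_smul', mul_smul, ← smul_add, neg_smul, ← sub_eq_add_neg]
    exact congrArg _ (eq_sub_of_add_eq (sub_eq_zero.1 ((sub_add_eq_add_sub _ _ _).symm.trans e)))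
  have m : ∀ x c, μ (g • x - x + c • one8) = tr x := fun x c => LinearMap.congr_fun hμ (x, c)
  let e : Fin 8 → Fin 8 → F := fun i => Pi.single i 1
  let y : Fin 8 → F := ![μ (e 7), -μ (e 4), -μ (e 5), -μ (e 6), -μ (e 1), -μ (e 2), -μ (e 3), μ (e 0)]
  have b : ∀ x, μ x = nm (y + x) - nm y - nm x := fun x => by
    rw [LinearMap.pi_apply_eq_sum_univ μ x]
    have : ∀ i : Fin 8, (fun j => if i = j then (1 : F) else 0) = e i := fun i =>
      funext fun j => by simp [e, Pi.single_apply, eq_comm]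
    simp [this, Fin.sum_univ_eight, nm, y]
    ring
  have m1 : μ one8 = 0 := by simpa [smul_zero'] using m 0 1
  have k : ∀ x, nm (g⁻¹ • y + x) - nm (g⁻¹ • y) = nm (y + x) - nm y + tr x := fun x => by
    have := m x 0
    rw [zero_smul, add_zero, map_sub, b, b, (inv_tn g x).2] at this
    rw [← (inv_tn g (_ + x)).2, smul_add', smul_inv_smul, (inv_tn g⁻¹ y).2]
    linear_combination this
  have ey : g⁻¹ • y = y + one8 := by
    generalize g⁻¹ • y = w at k
    generalize y = y at k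
    have k0 := k (e 0)
    have k1 := k (e 1)
    have k2 := k (e 2)
    have k3 := k (e 3)
    have k4 := k (e 4)
    have k5 := k (e 5)
    have k6 := k (e 6)
    have k7 := k (e 7)
    simp [e, nm, tr_apply] at k0 k1 k2 k3 k4 k5 k6 k7
    apply ext8 <;> simp [one8]
    exacts [by linear_combination k7, by linear_combination -k4, by linear_combination -k5,
      by linear_combination -k6, by linear_combination -k1, by linear_combination -k2,
      by linear_combination -k3, by linear_combination k0]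
  have := (inv_tn g⁻¹ y).2
  rw [b] at m1
  rw [ey] at this
  have n1 : nm (one8 : Fin 8 → F) = 1 := by simp [nm, one8]
  exact one_ne_zero (α := F) (by linear_combination this - m1 - n1)

/-- the automorphism given by a matrix of determinant one with columns `a`, `u`, `v` -/
def sl (a u v : Fin 3 → F) : (Fin 8 → F) →ₗ[F] (Fin 8 → F) where
  toFun x := ![x 0, x 1 * a 0 + x 2 * u 0 + x 3 * v 0, x 1 * a 1 + x 2 * u 1 + x 3 * v 1,
    x 1 * a 2 + x 2 * u 2 + x 3 * v 2,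
    x 4 * (u 1 * v 2 - u 2 * v 1) + x 5 * (v 1 * a 2 - v 2 * a 1) + x 6 * (a 1 * u 2 - a 2 * u 1),
    x 4 * (u 2 * v 0 - u 0 * v 2) + x 5 * (v 2 * a 0 - v 0 * a 2) + x 6 * (a 2 * u 0 - a 0 * u 2),
    x 4 * (u 0 * v 1 - u 1 * v 0) + x 5 * (v 0 * a 1 - v 1 * a 0) + x 6 * (a 0 * u 1 - a 1 * u 0), x 7]
  map_add' x y := by apply ext8 <;> simp <;> ring
  map_smul' r x := by apply ext8 <;> simp <;> ring

/-- its inverse -/
def sl' (a u v : Fin 3 → F) : (Fin 8 → F) →ₗ[F] (Fin 8 → F) where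
  toFun x := ![x 0,
    x 1 * (u 1 * v 2 - u 2 * v 1) + x 2 * (u 2 * v 0 - u 0 * v 2) + x 3 * (u 0 * v 1 - u 1 * v 0),
    x 1 * (v 1 * a 2 - v 2 * a 1) + x 2 * (v 2 * a 0 - v 0 * a 2) + x 3 * (v 0 * a 1 - v 1 * a 0),
    x 1 * (a 1 * u 2 - a 2 * u 1) + x 2 * (a 2 * u 0 - a 0 * u 2) + x 3 * (a 0 * u 1 - a 1 * u 0),
    x 4 * a 0 + x 5 * a 1 + x 6 * a 2, x 4 * u 0 + x 5 * u 1 + x 6 * u 2, x 4 * v 0 + x 5 * v 1 + x 6 * v 2, x 7]
  map_add' x y := by apply ext8 <;> simp <;> ring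
  map_smul' r x := by apply ext8 <;> simp <;> ring

theorem ex_sl (a u v : Fin 3 → F) (h : a 0 * (u 1 * v 2 - u 2 * v 1) + a 1 * (u 2 * v 0 - u 0 * v 2) +
    a 2 * (u 0 * v 1 - u 1 * v 0) = 1) : ∃ g : G2 F, ∀ x, g • x = sl a u v x := by
  refine ⟨mk (sl a u v) (sl' a u v) (fun x => ?_) fun x y => ?_, mk_smul _ _ _ _⟩
  · apply ext8 <;> simp [sl, sl']
    exacts [by linear_combination x 1 * h, by linear_combination x 2 * h, by linear_combination x 3 * h,
      by linear_combination x 4 * h, by linear_combination x 5 * h, by linear_combination x 6 * h]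
  · have k : ∀ i, ((x 5 * y 6 - x 6 * y 5) * a i + (x 6 * y 4 - x 4 * y 6) * u i + (x 4 * y 5 - x 5 * y 4) * v i) *
        _ = _ := fun i => congrArg _ h
    apply ext8 <;> simp [sl, zm]
    exacts [by linear_combination (-(x 1 * y 4 + x 2 * y 5 + x 3 * y 6)) * h, by linear_combination k 0,
      by linear_combination k 1, by linear_combination k 2, by ring, by ring, by ring,
      by linear_combination (-(x 4 * y 1 + x 5 * y 2 + x 6 * y 3)) * h]

theorem ex_cross (p q r : F) : ∃ u v : Fin 3 → F,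
    u 1 * v 2 - u 2 * v 1 = p ∧ u 2 * v 0 - u 0 * v 2 = q ∧ u 0 * v 1 - u 1 * v 0 = r := by
  by_cases h : p = 0
  · exact ⟨![1, 0, 0], ![0, r, -q], by simp [h], by simp, by simp⟩
  · exact ⟨![-q, p, 0], ![-r / p, 0, 1], by simp, by simp, by simp; field_simp⟩

theorem orb {δ : F} (hδ : ∀ c, c * (1 - c) ≠ δ) (x : Fin 8 → F) (t : tr x = 1) (n : nm x = δ) :
    ∃ g : G2 F, g • ![0, 1, 0, 0, -δ, 0, 0, 1] = x := by
  have d0 : δ ≠ 0 := fun e => hδ 0 (by simp [e])
  obtain ⟨g, g0⟩ : ∃ g : G2 F, (g • x) 0 = 0 := by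
    by_contra k
    have z : ∀ a b c, x 0 - (a * x 4 + b * x 5 + c * x 6) ≠ 0 := fun a b c e =>
      k ⟨D1 a b c, by rw [D1_smul]; exact e⟩
    have z4 : x 4 = 0 := not_not.1 fun e => z (x 0 / x 4) 0 0 (by field_simp; ring)
    have z5 : x 5 = 0 := not_not.1 fun e => z 0 (x 0 / x 5) 0 (by field_simp; ring)
    have z6 : x 6 = 0 := not_not.1 fun e => z 0 0 (x 0 / x 6) (by field_simp; ring)
    rw [tr_apply] at t
    rw [nm, z4, z5, z6] at n
    exact hδ (x 0) (by linear_combination n - x 0 * t)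
  rw [← (inv_tn g x).1, tr_apply, g0, zero_add] at t
  rw [← (inv_tn g x).2, nm, g0] at n
  obtain ⟨u, v, h1, h2, h3⟩ := ex_cross (-(g • x) 4 / δ) (-(g • x) 5 / δ) (-(g • x) 6 / δ)
  obtain ⟨k, hk⟩ := ex_sl ![(g • x) 1, (g • x) 2, (g • x) 3] u v (by
    rw [h1, h2, h3]; simp; field_simp; linear_combination n)
  refine ⟨g⁻¹ * k, ?_⟩
  rw [mul_smul, inv_smul_eq_iff, hk]
  apply ext8 <;> simp [sl, h1, h2, h3, g0, t] <;> field_simp

theorem jobG2 : H60.Cov.JobG2 := by
  intro F _ _ a _ hF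
  have : CharP F 2 := charP_of_card_eq_prime_pow (p := 2) hF
  let φ : F →+ F := AddMonoidHom.mk' (fun c => c * (1 - c)) fun c d => by
    linear_combination (-(c * d)) * (CharTwo.two_eq_zero : (2 : F) = 0)
  have ix : φ.range.index = 2 := by
    have c1 := φ.ker.card_mul_index
    have c2 := φ.range.card_mul_index
    rw [AddSubgroup.index_ker, show Nat.card φ.ker = 2 from Nat.card_eq_two_iff.2
      ⟨⟨0, zero_mem _⟩, ⟨1, show (1 : F) * (1 - 1) = 0 by simp⟩, fun e => zero_ne_one (congrArg Subtype.val e),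
      Set.eq_univ_of_forall fun c =>
        (mul_eq_zero.1 (show c.1 * (1 - c.1) = 0 from c.2)).imp Subtype.ext
          fun e => Subtype.ext (sub_eq_zero.1 e).symm⟩, ← c2, mul_comm] at c1
    exact (Nat.eq_of_mul_eq_mul_left Nat.card_pos c1).symm
  obtain ⟨δ, hδ⟩ : ∃ δ, δ ∉ φ.range := by
    by_contra k
    rw [(AddSubgroup.eq_top_iff' _).2 fun c => not_not.1 fun e => k ⟨c, e⟩, AddSubgroup.index_top] at ix
    omega
  refine ⟨St ee, St ![0, 1, 0, 0, -δ, 0, 0, 1], fun e => ?_, fun e => ?_, fun g => ?_⟩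
  · obtain ⟨c, h⟩ : D1 1 0 0 ∈ St (ee : Fin 8 → F) := e ▸ Subgroup.mem_top _
    simpa [D1_smul, d1, ee, one8] using congrFun h 1
  · obtain ⟨c, h⟩ : D1 0 1 0 ∈ St ![0, 1, 0, 0, -δ, 0, 0, 1] := e ▸ Subgroup.mem_top _
    simpa [D1_smul, d1, one8] using congrFun h 2
  obtain ⟨x, t, h⟩ := ex_st g
  have two : (2 : F) = 0 := CharTwo.two_eq_zero
  have sh : ∀ c : F, tr (x + c • one8) = 1 ∧ nm (x + c • one8) = nm x + c * (1 - c) := fun c => by
    rw [tr_apply] at t
    refine ⟨show x 0 + c * 1 + (x 7 + c * 1) = 1 by linear_combination t + c * two, ?_⟩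
    show (x 0 + c * 1) * (x 7 + c * 1) - ((x 1 + c * 0) * (x 4 + c * 0) + (x 2 + c * 0) * (x 5 + c * 0) +
      (x 3 + c * 0) * (x 6 + c * 0)) = x 0 * x 7 - (x 1 * x 4 + x 2 * x 5 + x 3 * x 6) + c * (1 - c)
    linear_combination c * t + c * c * two
  by_cases k : nm x ∈ φ.range
  · obtain ⟨c, k⟩ := k
    obtain ⟨y, e⟩ : x + c • one8 ∈ MulAction.orbit (G2 F) (ee : Fin 8 → F) := orbit_eq (F := F) ▸
      ⟨(sh c).1, sub_eq_zero.1 ((sh c).2.trans (by rw [← k]; exact CharTwo.add_self_eq_zero _))⟩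
    exact ⟨_, .inl (St.conj h c e)⟩
  · obtain ⟨c, k⟩ := (AddSubgroup.add_mem_iff_of_index_two ix).2 (iff_of_false k hδ)
    obtain ⟨y, e⟩ := orb (fun c e => hδ ⟨c, e⟩) _ (sh c).1 ((sh c).2.trans (by
      rw [show c * (1 - c) = _ from k, ← add_assoc, CharTwo.add_self_eq_zero, zero_add]))
    exact ⟨_, .inr (St.conj h c e)⟩

end H6.CovG2
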