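import Cfsg.Agent.H6.Mono
import Cfsg.Agent.H55.SL2Link
import Cfsg.Agent.H76.Srg
/-! The hexacode. -/
set_option autoImplicit false
namespace H6.Hexa
open Cfsg H6.Mono Finset Equiv

section
variable {F : Type*} [Field F] {ω : F}

def enc (ω : F) (u : F × F × F) : Fin 6 → F :=
  ![u.1, u.2.1, u.2.2, u.1 + u.2.1 + u.2.2, ω ^ 2 * u.1 + ω * u.2.1 + u.2.2,
    ω * u.1 + ω ^ 2 * u.2.1 + u.2.2]

def Ok (ω : F) (x : Fin 6 → F) : Prop :=
  x 3 = x 0 + x 1 + x 2 ∧ x 4 = ω ^ 2 * x 0 + ω * x 1 + x 2 ∧ x 5 = ω * x 0 + ω ^ 2 * x 1 + x 2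

theorem Ok.eq {x : Fin 6 → F} (h : Ok ω x) : enc ω (x 0, x 1, x 2) = x := by
  ext i; fin_cases i <;> simp [enc, h.1, h.2.1, h.2.2]

theorem ok_enc (u : F × F × F) : Ok ω (enc ω u) := ⟨rfl, rfl, rfl⟩

theorem two_eq [Fintype F] (hF : Fintype.card F = 4) : (2 : F) = 0 := by
  have := FiniteField.cast_card_eq_zero F
  rw [hF] at this
  exact pow_eq_zero_iff (two_ne_zero) |>.1 (by push_cast at this; linear_combination this)

theorem mem_iff (h2 : (2 : F) = 0) (hω : ω ^ 2 + ω + 1 = 0) {x : Fin 6 → F} :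
    x ∈ hexacode F ω ↔ Ok ω x := by
  rw [hexacode, Submodule.mem_span_triple]
  constructor
  · rintro ⟨a, b, c, rfl⟩
    refine ⟨?_, ?_, ?_⟩ <;> simp <;> grind
  · intro h
    refine ⟨ω * x 0 + ω ^ 2 * x 1, ω ^ 2 * x 0 + ω ^ 2 * x 1 + x 2, x 1 + x 2, ?_⟩
    rw [← h.eq]
    ext i; fin_cases i <;> simp [enc] <;> grind

theorem enc_inj : Function.Injective (enc ω) := fun u v h =>
  Prod.ext (congrFun h 0) (Prod.ext (congrFun h 1) (congrFun h 2))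

theorem ncard_enc [Fintype F] (h2 : (2 : F) = 0) (hω : ω ^ 2 + ω + 1 = 0) (P : (Fin 6 → F) → Prop)
    [DecidablePred P] :
    {x | x ∈ hexacode F ω ∧ P x}.ncard = (univ.filter fun u => P (enc ω u)).card := by
  rw [← H76.ncard_eq_filter, ← Set.ncard_image_of_injective _ enc_inj]
  congr 1
  ext x
  rw [Set.mem_ofPred_eq, mem_iff h2 hω]
  exact ⟨fun h => ⟨_, by rw [Set.mem_ofPred_eq, h.1.eq]; exact h.2, h.1.eq⟩,
    by rintro ⟨u, h, rfl⟩; exact ⟨ok_enc u, h⟩⟩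

abbrev wt [DecidableEq F] (x : Fin 6 → F) : ℕ := (univ.filter fun i => x i ≠ 0).card

theorem wt_map {K : Type*} [Field K] [DecidableEq F] [DecidableEq K] (f : F ≃+* K) (u : F × F × F) :
    wt (enc (f ω) (f u.1, f u.2.1, f u.2.2)) = wt (enc ω u) := by
  have : enc (f ω) (f u.1, f u.2.1, f u.2.2) = fun i => f (enc ω u i) := by
    ext i; fin_cases i <;> simp [enc]
  simp [wt, this]

theorem cnt : ∀ w : H55.F4, w ^ 2 + w + 1 = 0 →
    (univ.filter fun u => wt (enc w u) = 4).card = 45 ∧ (univ.filter fun u => wt (enc w u) = 6).card = 18 ∧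
    ∀ a b c, (a = 0 ∧ b = 0 ∧ c = 0) ∨ wt (enc w (a, b, c)) = 4 ∨ wt (enc w (a, b, c)) = 6 := by
  decide +kernel

theorem weights [Fintype F] [DecidableEq F] (hF : Fintype.card F = 4) (hω : ω ^ 2 + ω + 1 = 0) :
    (univ.filter fun u => wt (enc ω u) = 4).card = 45 ∧ (univ.filter fun u => wt (enc ω u) = 6).card = 18 ∧
    ∀ u, enc ω u ≠ 0 → wt (enc ω u) = 4 ∨ wt (enc ω u) = 6 := by
  have f : F ≃+* H55.F4 := FiniteField.ringEquivOfCardEq (by rw [hF, H55.card_F4])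
  obtain ⟨h1, h2, h3⟩ := cnt (f ω) (by simpa using congrArg f hω)
  have k : ∀ n, (univ.filter fun u => wt (enc ω u) = n).card =
      (univ.filter fun u => wt (enc (f ω) u) = n).card := fun n =>
    card_equiv (f.toEquiv.prodCongr (f.toEquiv.prodCongr f.toEquiv)) fun u => by
      simp only [mem_filter, mem_univ, true_and, ← wt_map f u]; rfl
  refine ⟨(k 4).trans h1, (k 6).trans h2, fun u hu => ?_⟩
  rw [← wt_map f u]
  refine (h3 _ _ _).resolve_left fun h => hu ?_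
  simp only [map_eq_zero] at h
  ext i; fin_cases i <;> simp [enc, h.1, h.2.1, h.2.2]

theorem ne_zero (hω : ω ^ 2 + ω + 1 = 0) : ω ≠ 0 := by rintro rfl; simp at hω

theorem pres_iff (h2 : (2 : F) = 0) (hω : ω ^ 2 + ω + 1 = 0) {σ : Perm (Fin 6)} {c : Fin 6 → Fˣ} :
    Pres (hexacode F ω) σ c ↔ ∀ u, Ok ω (monomialMap σ c (enc ω u)) :=
  ⟨fun h u => (mem_iff h2 hω).1 (h _ ((mem_iff h2 hω).2 (ok_enc u))), fun h x hx => by
    rw [← ((mem_iff h2 hω).1 hx).eq]; exact (mem_iff h2 hω).2 (h _)⟩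

theorem diag (h2 : (2 : F) = 0) (hω : ω ^ 2 + ω + 1 = 0) {c : Fin 6 → Fˣ}
    (h : Pres (hexacode F ω) 1 c) (i : Fin 6) : c i = c 3 := by
  rw [pres_iff h2 hω] at h
  have a := h (1, 0, 0)
  have b := h (0, 1, 0)
  have d := h (0, 0, 1)
  simp [Ok, monomialMap, enc, Perm.one_def] at a b d
  refine Units.ext ?_
  fin_cases i
  exacts [a.1.symm, b.1.symm, d.1.symm, rfl, d.2.1.trans d.1.symm, d.2.2.trans d.1.symm]

theorem not_swap (h2 : (2 : F) = 0) (hω : ω ^ 2 + ω + 1 = 0) {c : Fin 6 → Fˣ} :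
    ¬ Pres (hexacode F ω) (swap 0 1) c := fun h => by
  rw [pres_iff h2 hω] at h
  have a := h (1, 0, 0)
  have d := h (0, 0, 1)
  simp [Ok, monomialMap, enc, swap_apply_def] at a d
  have e := a.2.1
  rw [d.2.1, ← d.1, a.1, mul_comm ω, mul_right_inj' (c 1).ne_zero] at e
  grind

def cy (k : Fin 6) : Perm (Fin 6) := swap 0 k * swap 0 1
def wd (w : List (Fin 6)) : Perm (Fin 6) := (w.map cy).prod
def bs : Fin 4 → Fin 6 := ![5, 4, 3, 2]
def Ls : List (List (Fin 6)) := [[], [5], [5, 5], [2, 5, 5], [3, 5, 5], [4, 5, 5], [4], [4, 4], [2, 4, 4],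
  [3, 4, 4], [3], [3, 3], [2, 3, 3], [2], [2, 2]]

theorem Ls_ok : ∀ j : Fin 4, ∀ y, (∀ i < j, bs i ≠ y) → ∃ w ∈ Ls, (∀ l ∈ w, l = 2 ∨ l = 3 ∨ l = 4 ∨ l = 5) ∧
    wd w (bs j) = y ∧ ∀ i < j, wd w (bs i) = bs i := by decide +kernel

theorem Gam_eq [Finite F] (h2 : (2 : F) = 0) (hω : ω ^ 2 + ω + 1 = 0) :
    Gam (hexacode F ω) = alternatingGroup (Fin 6) := by
  let u := Units.mk0 ω (ne_zero hω)
  have hc : ∀ l : Fin 6, l = 2 ∨ l = 3 ∨ l = 4 ∨ l = 5 → cy l ∈ Gam (hexacode F ω) := by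
    rintro _ (rfl | rfl | rfl | rfl)
    · refine ⟨![1, 1, 1, 1, u ^ 2, u], (pres_iff h2 hω).2 fun v => ⟨?_, ?_, ?_⟩⟩ <;>
        simp [monomialMap, enc, cy, Perm.mul_def, swap_apply_def, u] <;> grind
    · refine ⟨![1, 1, 1, 1, u, u ^ 2], (pres_iff h2 hω).2 fun v => ⟨?_, ?_, ?_⟩⟩ <;>
        simp [monomialMap, enc, cy, Perm.mul_def, swap_apply_def, u] <;> grind
    · refine ⟨![1, 1, u ^ 2, u, 1, 1], (pres_iff h2 hω).2 fun v => ⟨?_, ?_, ?_⟩⟩ <;>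
        simp [monomialMap, enc, cy, Perm.mul_def, swap_apply_def, u] <;> grind
    · refine ⟨![1, 1, u, u ^ 2, 1, 1], (pres_iff h2 hω).2 fun v => ⟨?_, ?_, ?_⟩⟩ <;>
        simp [monomialMap, enc, cy, Perm.mul_def, swap_apply_def, u] <;> grind
  have hA : alternatingGroup (Fin 6) ≤ Gam (hexacode F ω) := by
    refine IsMultiplyPretransitive.alternatingGroup_le (α := Fin 6) _ ?_
    rw [show Nat.card (Fin 6) - 2 = 4 by simp]
    refine multTrans (b := bs) fun x hx => chain (j0 := 0) (fun j _ y hy => ?_) hx (by simp)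
    obtain ⟨w, -, h1, h3⟩ := Ls_ok j y hy
    exact ⟨_, list_prod_mem fun _ hx => by
      obtain ⟨l, hl, rfl⟩ := List.mem_map.1 hx; exact hc l (h1 l hl), h3⟩
  refine le_antisymm (fun σ hσ => ?_) hA
  by_contra h
  have : σ⁻¹ * swap 0 1 ∈ alternatingGroup (Fin 6) := by
    rw [Perm.mem_alternatingGroup] at h ⊢
    rw [map_mul, map_inv, (Int.units_eq_one_or _).resolve_left h, Perm.sign_swap (by decide)]; rfl
  obtain ⟨c, k⟩ := mul_mem hσ (hA this)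
  rw [mul_inv_cancel_left] at k
  exact not_swap h2 hω k

end
end H6.Hexa
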