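import Cfsg.Agent.Base

/-! Tower SP, slot HD2, algebra: an automorphism of the pair (`J / Z(J)`, `Z`) with the square map
normalises the scalars. -/

set_option autoImplicit false

namespace H6.SpHD2

variable {F : Type} [Field F]

/-- `g` turns some scalar into any given scalar. -/
def Sc (g : F → F) : Prop := ∀ α : F, ∃ β : F, ∀ s, g (β * s) = α * g s

theorem sc_iso [Finite F] {k f₁ f₂ : F → F} (h : ∀ s u, k (s * u) = f₁ s * f₂ u)
    (hk : Function.Injective k) (h0 : k 0 = 0) : Sc f₁ := by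
  have k1 : f₁ 1 * f₂ 1 ≠ 0 := by
    rw [← h, ← h0]; exact fun e => one_ne_zero ((one_mul (1 : F)).symm.trans (hk e))
  have n1 := left_ne_zero_of_mul k1
  have n2 := right_ne_zero_of_mul k1
  have i2 : Function.Injective f₂ := fun a b e => by
    have : k (1 * a) = k (1 * b) := by rw [h, h, e]
    simpa using hk this
  intro α
  obtain ⟨β, hβ⟩ := Finite.surjective_of_injective i2 (α * f₂ 1)
  refine ⟨β, fun s => mul_right_cancel₀ n2 ?_⟩
  rw [← h, mul_one, mul_comm β, h, hβ]; ring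

theorem sc_iso' [Finite F] {k f₁ f₂ : F → F} (h : ∀ s u, k (s * u) = f₁ s * f₂ u)
    (hk : Function.Injective k) (h0 : k 0 = 0) : Sc f₂ :=
  sc_iso (f₂ := f₁) (fun s u => by rw [mul_comm s, h, mul_comm]) hk h0

theorem sc_sq [CharP F 2] {g : F → F} (h : Sc fun s => g s * g s) : Sc g := fun α => by
  obtain ⟨β, hβ⟩ := h (α * α)
  refine ⟨β, fun s => ?_⟩
  have h1 : (g (β * s) + α * g s) * (g (β * s) + α * g s) = 0 := by
    have := CharTwo.two_eq_zero (R := F)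
    have := hβ s
    grind
  have h2 := mul_self_eq_zero.1 h1
  have := CharTwo.two_eq_zero (R := F)
  grind

/-- An injective additive map keeping the union of the axes fixes or swaps them. -/
theorem axes [Finite F] {f : F × F → F × F} (ad : ∀ x y, f (x + y) = f x + f y)
    (inj : Function.Injective f) (h : ∀ x : F × F, x.1 * x.2 = 0 → (f x).1 * (f x).2 = 0) :
    (∀ b, (f (b, 0)).2 = 0) ∧ (∀ d, (f (0, d)).1 = 0) ∨
      (∀ b, (f (b, 0)).1 = 0) ∧ (∀ d, (f (0, d)).2 = 0) := by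
  have key : ∀ j : F → F × F, (∀ a b, j (a + b) = j a + j b) → (∀ a, (j a).1 * (j a).2 = 0) →
      (∀ a, (j a).1 = 0) ∨ ∀ a, (j a).2 = 0 := fun j ja jz => by
    by_contra hn
    push Not at hn
    obtain ⟨⟨a, ha⟩, b, hb⟩ := hn
    have h1 := (mul_eq_zero.1 (jz a)).resolve_left ha
    have h2 := (mul_eq_zero.1 (jz b)).resolve_right hb
    have h3 := jz (a + b)
    rw [ja, Prod.fst_add, Prod.snd_add, h1, h2, add_zero, zero_add] at h3
    exact mul_ne_zero ha hb h3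
  have sp : ∀ x : F × F, f x = f (x.1, 0) + f (0, x.2) := fun x => by rw [← ad]; simp
  have su := Finite.surjective_of_injective inj
  rcases key (fun b => f (b, 0)) (fun a b => by rw [← ad]; simp) (fun a => h _ (by simp)) with
    h1 | h1 <;>
  rcases key (fun b => f (0, b)) (fun a b => by rw [← ad]; simp) (fun a => h _ (by simp)) with
    h2 | h2
  · obtain ⟨x, hx⟩ := su (1, 0)
    have := congrArg Prod.fst (sp x)
    rw [hx, Prod.fst_add, h1, h2] at this
    simp at this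
  · exact Or.inr ⟨h1, h2⟩
  · exact Or.inl ⟨h1, h2⟩
  · obtain ⟨x, hx⟩ := su (0, 1)
    have := congrArg Prod.snd (sp x)
    rw [hx, Prod.snd_add, h1, h2] at this
    simp at this

/-- the square map -/
def sqm (x : F × F) : F × F := (x.1 * x.1 * x.2, x.1 * x.2)

theorem exists_sq {y : F × F} (h : y.1 * y.2 ≠ 0) : ∃ x, sqm x = y := by
  have h1 := left_ne_zero_of_mul h
  have h2 := right_ne_zero_of_mul h
  refine ⟨(y.1 / y.2, y.2 * y.2 / y.1), Prod.ext ?_ ?_⟩ <;> simp only [sqm] <;> field_simp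

theorem sum_sq [CharP F 2] {w : F} (w0 : w ≠ 0) (w1 : w ≠ 1) (y : F × F) :
    ∃ x x', y = sqm x + sqm x' := by
  have := CharTwo.two_eq_zero (R := F)
  have k : ∀ a : F, ∃ p : F, p ≠ 0 ∧ p + a ≠ 0 := fun a => by
    by_cases h : a = 1
    · exact ⟨w, w0, fun e => w1 (by grind)⟩
    · exact ⟨1, one_ne_zero, fun e => h (by grind)⟩
  obtain ⟨p, p1, p2⟩ := k y.1
  obtain ⟨r, r1, r2⟩ := k y.2
  obtain ⟨x, hx⟩ := exists_sq (y := (p, r)) (mul_ne_zero p1 r1)
  obtain ⟨x', hx'⟩ := exists_sq (y := (p + y.1, r + y.2)) (mul_ne_zero p2 r2)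
  refine ⟨x, x', ?_⟩
  rw [hx, hx']
  ext <;> simp <;> grind

theorem scal [Finite F] [CharP F 2] {φ ψ : F × F → F × F} (a1 : ∀ x y, φ (x + y) = φ x + φ y)
    (i1 : Function.Injective φ) (a2 : ∀ x y, ψ (x + y) = ψ x + ψ y) (i2 : Function.Injective ψ)
    (h : ∀ x, ψ (sqm x) = sqm (φ x)) {α β : F} (hα : α ≠ 0) (hβ : β ≠ 0) :
    ∃ α' β' : F, α' ≠ 0 ∧ β' ≠ 0 ∧ ∀ x : F × F, φ (α' * x.1, β' * x.2) = (α * (φ x).1, β * (φ x).2) := by
  have z1 : φ 0 = 0 := by simpa using a1 0 0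
  have z2 : ψ 0 = 0 := by simpa using a2 0 0
  have c1 : ∀ x : F × F, x.1 * x.2 = 0 → (φ x).1 * (φ x).2 = 0 := fun x hx => by
    have : sqm x = 0 := by simp only [sqm, mul_assoc, hx, mul_zero]; rfl
    exact (congrArg Prod.snd ((h x).symm.trans (by rw [this, z2])) :)
  have c2 : ∀ x : F × F, x.1 * x.2 = 0 → (ψ x).1 * (ψ x).2 = 0 := fun x hx => by
    by_contra hn
    obtain ⟨w, hw⟩ := exists_sq hn
    obtain ⟨v, rfl⟩ := Finite.surjective_of_injective i1 w
    obtain rfl := i2 ((h v).trans hw)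
    have h1 : v.1 * v.2 = 0 := by
      simp only [sqm] at hx
      by_contra h2
      exact mul_ne_zero (by rw [mul_assoc]; exact mul_ne_zero (left_ne_zero_of_mul h2) h2) h2 hx
    have : sqm v = 0 := by simp only [sqm, mul_assoc, h1, mul_zero]; rfl
    rw [this, z2] at hn
    simp at hn
  have sp1 : ∀ b d : F, φ (b, d) = φ (b, 0) + φ (0, d) := fun b d => by rw [← a1]; simp
  have sp2 : ∀ b d : F, ψ (b, d) = ψ (b, 0) + ψ (0, d) := fun b d => by rw [← a2]; simp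
  have hs : ∀ b d : F, ψ (b * b * d, 0) + ψ (0, b * d) = sqm (φ (b, 0) + φ (0, d)) := fun b d => by
    rw [← sp1, ← sp2, ← h]; rfl
  have j1 : (∀ a, (ψ (0, a)).1 = 0) → Function.Injective fun a => (ψ (0, a)).2 := fun e a b h =>
    congrArg Prod.snd (i2 (Prod.ext ((e a).trans (e b).symm) h))
  have j2 : (∀ a, (ψ (0, a)).2 = 0) → Function.Injective fun a => (ψ (0, a)).1 := fun e a b h =>
    congrArg Prod.snd (i2 (Prod.ext h ((e a).trans (e b).symm)))
  have z3 : (ψ (0, 0)).1 = 0 := congrArg Prod.fst z2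
  have z4 : (ψ (0, 0)).2 = 0 := congrArg Prod.snd z2
  have nz : ∀ {g : F → F} {γ γ' : F}, γ ≠ 0 → g 0 = 0 → g 1 ≠ 0 → (∀ s, g (γ' * s) = γ * g s) →
      γ' ≠ 0 := fun {g γ γ'} h0 h1 h2 h3 h4 => by
    have := h3 1
    rw [h4, zero_mul, h1] at this
    exact mul_ne_zero h0 h2 this.symm
  have z5 : (φ (0, 0)).1 = 0 := congrArg Prod.fst z1
  have z6 : (φ (0, 0)).2 = 0 := congrArg Prod.snd z1
  have nn : ∀ x : F × F, x ≠ 0 → (φ x).1 = 0 → (φ x).2 = 0 → False := fun x h0 h1 h2 =>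
    h0 (i1 ((Prod.ext h1 h2 : φ x = 0).trans z1.symm))
  rcases axes a1 i1 c1 with ⟨p1, p2⟩ | ⟨p1, p2⟩
  · have S : Sc (fun b => (φ (b, 0)).1) ∧ Sc fun d => (φ (0, d)).2 := by
      rcases axes a2 i2 c2 with ⟨q1, q2⟩ | ⟨q1, q2⟩
      · have e : ∀ b d, (ψ (0, b * d)).2 = (φ (b, 0)).1 * (φ (0, d)).2 := fun b d => by
          simpa [sqm, p1, p2, q1] using congrArg Prod.snd (hs b d)
        exact ⟨sc_iso e (j1 q2) z4, sc_iso' e (j1 q2) z4⟩
      · have e : ∀ b d, (ψ (0, b * d)).1 = (φ (b, 0)).1 * (φ (b, 0)).1 * (φ (0, d)).2 := fun b d => by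
          simpa [sqm, p1, p2, q1] using congrArg Prod.fst (hs b d)
        exact ⟨sc_sq (sc_iso e (j2 q2) z3), sc_iso' e (j2 q2) z3⟩
    obtain ⟨α', h1⟩ := S.1 α
    obtain ⟨β', h2⟩ := S.2 β
    refine ⟨α', β', nz (g := fun b => (φ (b, 0)).1) hα z5 (fun e => nn (1, 0) (by simp) e (p1 1)) h1,
      nz (g := fun d => (φ (0, d)).2) hβ z6 (fun e => nn (0, 1) (by simp) (p2 1) e) h2, fun x => ?_⟩
    rw [sp1, show x = (x.1, x.2) from rfl, sp1 x.1 x.2]
    ext <;> simp [p1, p2, h1, h2]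
  · have S : Sc (fun b => (φ (b, 0)).2) ∧ Sc fun d => (φ (0, d)).1 := by
      rcases axes a2 i2 c2 with ⟨q1, q2⟩ | ⟨q1, q2⟩
      · have e : ∀ b d, (ψ (0, b * d)).2 = (φ (b, 0)).2 * (φ (0, d)).1 := fun b d => by
          simpa [sqm, p1, p2, q1, mul_comm] using congrArg Prod.snd (hs b d)
        exact ⟨sc_iso e (j1 q2) z4, sc_iso' e (j1 q2) z4⟩
      · have e : ∀ b d, (ψ (0, b * d)).1 = (φ (b, 0)).2 * ((φ (0, d)).1 * (φ (0, d)).1) := fun b d => by
          have := congrArg Prod.fst (hs b d)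
          simp only [sqm, Prod.fst_add, Prod.snd_add, p1, p2, q1, zero_add, add_zero] at this
          rw [this]; ring
        exact ⟨sc_iso e (j2 q2) z3, sc_sq (sc_iso' e (j2 q2) z3)⟩
    obtain ⟨α', h1⟩ := S.1 β
    obtain ⟨β', h2⟩ := S.2 α
    refine ⟨α', β', nz (g := fun b => (φ (b, 0)).2) hβ z6 (fun e => nn (1, 0) (by simp) (p1 1) e) h1,
      nz (g := fun d => (φ (0, d)).1) hα z5 (fun e => nn (0, 1) (by simp) e (p2 1)) h2, fun x => ?_⟩
    rw [sp1, show x = (x.1, x.2) from rfl, sp1 x.1 x.2]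
    ext <;> simp [p1, p2, h1, h2]

end H6.SpHD2
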