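/- C6R3 tower (blueprints/C6R3.md), job FinU: the unitary restriction and the generation of `SU₉`. -/
import Cfsg.Agent.H13.T3Spec
import Cfsg.Agent.H62.UComp
import Cfsg.Agent.H59.Std

set_option autoImplicit false
open Matrix hiding mul_inv_rev
open Cfsg Cfsg.Geo H25 H60.L3 H13.T3 H62 Module
open scoped commutatorElement

namespace H6.FinU
universe u
variable {F : Type u} [Field F] {ω : Fˣ}

section basic
variable {ι : Type} [Fintype ι] [DecidableEq ι] {d e : GL ι F} {R : Subgroup (GL ι F)}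

theorem cube_val (h : d ^ 3 = 1) : d.val * d.val * d.val = 1 := by
  simpa [pow_succ] using congrArg Units.val h

theorem mul_pj (h : d ^ 3 = 1) : d.val * pj d = pj d := by
  rw [pj, Matrix.mul_smul, mul_add, mul_add, ← mul_assoc, cube_val h, mul_one]; congr 1; abel

theorem pj_mul (h : d ^ 3 = 1) : pj d * d.val = pj d := by
  rw [pj, Matrix.smul_mul, add_mul, add_mul, cube_val h, one_mul]; congr 1; abel

theorem pj_pj (h3 : (3 : F) ≠ 0) (h : d ^ 3 = 1) : pj d * pj d = pj d := by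
  nth_rewrite 1 [pj]
  rw [Matrix.smul_mul, add_mul, add_mul, mul_assoc, mul_pj h, mul_pj h, one_mul]
  match_scalars
  field_simp
  ring

theorem hm_val (h3 : (3 : F) ≠ 0) (h : d ^ 3 = 1) : (hm ω d).val = 1 + ((ω : F) - 1) • pj d := by
  refine H60.Cl.un_val (b := 1 + ((ω : F)⁻¹ - 1) • pj d) ?_ ?_ <;>
  · simp only [mul_add, add_mul, Matrix.mul_smul, Matrix.smul_mul, pj_pj h3 h, one_mul, mul_one]
    match_scalars <;> field_simp <;> ring

theorem pj_mid (h : Ex ω R) (hd : d ∈ R) (he : e ∈ R) (n : e * d ≠ d * e) : pj d * e.val * pj d = 0 := by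
  obtain ⟨c, hc⟩ := mem_scalars_iff'.1 (h.comm e he d hd)
  have k : e * d = sc ι c * (d * e) := by rw [← hc, commutatorElement_def]; group
  have c1 : (1 - c : F) ≠ 0 := fun o => n (by rw [k, show c = 1 from Units.ext (sub_eq_zero.1 o).symm]; simp)
  have k' : e.val * d.val = (c : F) • (d.val * e.val) := by simpa [coe_sc] using congrArg Units.val k
  refine (smul_eq_zero.1 ?_).resolve_left c1
  rw [sub_smul, one_smul, sub_eq_zero]
  conv_lhs => rw [← mul_pj (h.cube d hd), mul_assoc _ e.val, ← mul_assoc e.val, mul_pj (h.cube d hd), k']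
  rw [Matrix.smul_mul, Matrix.mul_smul, ← mul_assoc, ← mul_assoc, pj_mul (h.cube d hd)]

end basic

variable [Fintype F] {q n : ℕ} (hF : Fintype.card F = q ^ 2) {d y y' g : GL (Fin n) F}
  {U : Matrix (Fin n) (Fin 3) F} {W : Matrix (Fin 3) (Fin n) F}

theorem iso (hg : g ∈ GU n F q) (u v : Fin n → F) :
    H59.uForm hF n (g.val *ᵥ u) (g.val *ᵥ v) = H59.uForm hF n u v := (H59.mem_GU_iff hF n g).1 hg u v

theorem pj_adj (hd : d ∈ GU n F q) (h : d ^ 3 = 1) (u v : Fin n → F) :
    H59.uForm hF n (pj d *ᵥ u) v = H59.uForm hF n u (pj d *ᵥ v) := by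
  have k : ∀ v, d.val *ᵥ d.val *ᵥ d.val *ᵥ v = v := fun v => by
    rw [mulVec_mulVec, mulVec_mulVec, cube_val h, one_mulVec]
  have a := iso hF hd u (d.val *ᵥ d.val *ᵥ v)
  have c := (iso hF hd (d.val *ᵥ d.val *ᵥ u) v).symm
  rw [k] at a c
  simp only [pj, smul_mulVec, add_mulVec, one_mulVec, ← mulVec_mulVec, H59.form_smul_left, map_smul, map_add,
    LinearMap.add_apply, map_inv₀, map_ofNat, smul_eq_mul, a, c]
  ring

theorem gram (h3 : q % 3 = 2) (om : Om ω) (hd : d ∈ GU n F q) (h : d ^ 3 = 1) (hy : y ∈ GU n F q)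
    (hy' : y' ∈ GU n F q) (fr : Fr ω d y y' U W) :
    ∃ l ≠ 0, ∀ u v, H59.uForm hF n (U *ᵥ u) (U *ᵥ v) = l * H59.uForm hF 3 u v := by
  let f : (Fin 3 → F) → (Fin 3 → F) → F := fun u v => H59.uForm hF n (U *ᵥ u) (U *ᵥ v)
  have hσ := om.frob_eq hF h3
  have h1 := om.eq
  have h2 := om.ne_one
  have h4 := om.sq_ne_one
  have hs : ∀ (a b : F) u v, f (a • u) (b • v) = H59.frob hF a * b * f u v := fun a b u v => by
    simp only [f, mulVec_smul, H59.form_smul_left, H59.form_smul_right]; ring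
  have iX : ∀ u v, f ((X ω).val *ᵥ u) ((X ω).val *ᵥ v) = f u v := fun u v => by
    simp only [f, mulVec_mulVec, ← fr.yu, smul_mulVec, H59.form_smul_left, H59.form_smul_right]
    simp only [← mulVec_mulVec, iso hF hy, hσ]
    linear_combination ((ω : F) - 1) * H59.uForm hF n (U *ᵥ u) (U *ᵥ v) * h1
  have iC : ∀ u v, f ((C : G3 F).val *ᵥ u) ((C : G3 F).val *ᵥ v) = f u v := fun u v => by
    simp only [f, mulVec_mulVec, ← fr.cu]
    simp only [← mulVec_mulVec, iso hF hy']
  have hX : ∀ i, (X ω).val *ᵥ Pi.single i 1 = ![(ω : F), 1, ω ^ 2] i • Pi.single i 1 := fun i => by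
    ext k; fin_cases i <;> fin_cases k <;> simp [X, D_val, om.inv']
  have hC : ∀ i, (C : G3 F).val *ᵥ Pi.single i 1 = Pi.single (i + 1) 1 := fun i => by
    ext k; fin_cases i <;> fin_cases k <;> simp [C_val]
  have a1 : ∀ i j, i ≠ j → f (Pi.single i 1) (Pi.single j 1) = 0 := fun i j hij => by
    have := iX (Pi.single i 1) (Pi.single j 1)
    rw [hX, hX, hs] at this
    by_contra h0
    have := (mul_eq_right₀ h0).1 this
    clear * - this hij h1 h2 h4 hσ
    generalize (ω : F) = w at *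
    fin_cases i <;> fin_cases j <;> simp [hσ] at this hij <;> grind
  have a2 : ∀ i, f (Pi.single (i + 1) 1) (Pi.single (i + 1) 1) = f (Pi.single i 1) (Pi.single i 1) :=
    fun i => by rw [← hC, iC]
  have a3 : ∀ u v, f u v = f (Pi.single 0 1) (Pi.single 0 1) * H59.uForm hF 3 u v := fun u v => by
    have b1 : f (Pi.single 1 1) (Pi.single 1 1) = _ := a2 0
    have b2 : f (Pi.single 2 1) (Pi.single 2 1) = _ := (a2 1).trans b1
    have s : ∀ u : Fin 3 → F, u = u 0 • Pi.single 0 1 + u 1 • Pi.single 1 1 + u 2 • Pi.single 2 1 := fun u => by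
      ext k; fin_cases k <;> simp
    have ad : ∀ a b c, f (a + b) c = f a c + f b c ∧ f c (a + b) = f c a + f c b := fun a b c => by
      simp [f, mulVec_add]
    conv_lhs => rw [s u, s v]
    simp only [ad, hs, b1, b2, a1, H59.stdForm_apply, Fin.sum_univ_three, ne_eq, Fin.reduceEq, not_false_eq_true]
    ring
  refine ⟨_, fun o => ?_, a3⟩
  have := (H59.isHerm_uForm hF n).nondeg (U *ᵥ 1) fun w => by
    rw [show U = pj d * U by rw [← fr.uw, Matrix.mul_assoc, fr.wu, Matrix.mul_one], ← mulVec_mulVec,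
      pj_adj hF hd h, ← fr.uw, ← mulVec_mulVec]
    exact (a3 _ _).trans (by rw [o, zero_mul])
  have := congrArg (W *ᵥ ·) this
  simp only [mulVec_mulVec, fr.wu, one_mulVec, mulVec_zero] at this
  exact one_ne_zero (congrFun this 0)

include hF in
theorem res (h3 : q % 3 = 2) (om : Om ω) (hd : d ∈ GU n F q) (h : d ^ 3 = 1) (hy : y ∈ GU n F q)
    (hy' : y' ∈ GU n F q) (fr : Fr ω d y y' U W) (hg : g ∈ GU n F q) (c : g.val * pj d = pj d * g.val)
    (A : G3 F) (hA : A.val = W * g.val * U) : A ∈ GU 3 F q := by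
  obtain ⟨l, l0, hl⟩ := gram hF h3 om hd h hy hy' fr
  have k : U * A.val = g.val * U := by
    rw [hA, ← Matrix.mul_assoc, ← Matrix.mul_assoc, fr.uw, ← c, ← fr.uw, Matrix.mul_assoc, Matrix.mul_assoc, fr.wu,
      Matrix.mul_one]
  refine (H59.mem_GU_iff hF 3 A).2 fun u v => mul_left_cancel₀ l0 ?_
  rw [← hl, ← hl, H59.glEquiv_apply, H59.glEquiv_apply, mulVec_mulVec, mulVec_mulVec, k, ← mulVec_mulVec,
    ← mulVec_mulVec, iso hF hg]

theorem jobFinU : JobFinU.{u} := by
  intro F _ _ q ω R G hF h3 h hG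
  have RU := h.le.trans hG
  refine ⟨fun d x y y' U W s fr g hg => res hF h3 h.om (RU s.md) (h.cube d s.md) (RU s.my) (RU s.my') fr (hG hg), ?_⟩
  rintro ⟨d, x, y, y', U, W, s, fr, big⟩ g hg
  have H := H59.isHerm_uForm hF 9
  have c3 := h.cube d s.md
  have pp := pj_pj h.om.ne c3
  have ad := pj_adj hF (RU s.md) c3
  obtain ⟨l, l0, hl⟩ := gram hF h3 h.om (RU s.md) c3 (RU s.my) (RU s.my') fr
  set B := H59.uForm hF 9
  let φ := H59.glEquiv (Fin 9) F
  let M := G.map φ.toMonoidHom
  let W₀ := LinearMap.range U.mulVecLin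
  have pU : pj d * U = U := by rw [← fr.uw, Matrix.mul_assoc, fr.wu, Matrix.mul_one]
  have w1 : ∀ v, pj d *ᵥ v ∈ W₀ := fun v => ⟨W *ᵥ v, by rw [mulVecLin_apply, mulVec_mulVec, fr.uw]⟩
  have w2 : ∀ v ∈ W₀, pj d *ᵥ v = v := by
    rintro _ ⟨u, rfl⟩
    rw [mulVecLin_apply, mulVec_mulVec, pU]
  have r3 : finrank F W₀ = 3 := (LinearMap.finrank_range_of_inj fun a b e => by
    simpa [fr.wu] using congrArg (W *ᵥ ·) e).trans (by simp)
  have good : GoodU M B W₀ := by
    refine ⟨Submodule.disjoint_def.2 ?_, r3.ge, fun e he fx => ?_⟩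
    · rintro _ ⟨u, rfl⟩ hu
      rw [(H59.isHerm_uForm hF 3).nondeg' u fun v => (mul_eq_zero.1 ((hl v u).symm.trans
        (hu _ ⟨v, rfl⟩))).resolve_left l0, map_zero]
    obtain ⟨E, rfl⟩ := φ.surjective e
    have EU := (H59.mem_GU_iff hF 9 E).2 he.1
    have f1 : ∀ v, E.val *ᵥ (v - pj d *ᵥ v) = v - pj d *ᵥ v := fun v => fx _ fun w hw => by
      rw [map_sub, ← ad, w2 w hw, sub_self]
    have f2 : ∀ v, pj d *ᵥ E.val *ᵥ pj d *ᵥ v = E.val *ᵥ pj d *ᵥ v := fun v =>
      sub_eq_zero.1 (H.nondeg' _ fun w => by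
        rw [map_sub, ← ad, ← LinearMap.sub_apply, ← map_sub, ← neg_sub, map_neg, ← f1, LinearMap.neg_apply,
          iso hF EU, ← ad, mulVec_sub, mulVec_mulVec, pp, sub_self, map_zero, LinearMap.zero_apply, neg_zero])
    have g1 : E.val * (1 - pj d) = 1 - pj d := mat_ext_mulVec fun v => by
      rw [← mulVec_mulVec, sub_mulVec, one_mulVec, f1]
    have g2 : pj d * E.val * pj d = E.val * pj d := mat_ext_mulVec fun v => by
      rw [← mulVec_mulVec, ← mulVec_mulVec, ← mulVec_mulVec, f2]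
    have g3 : E.val = 1 + U * (W * E.val * U - 1) * W := by
      rw [Matrix.mul_sub, Matrix.sub_mul, Matrix.mul_one, ← Matrix.mul_assoc, ← Matrix.mul_assoc,
        Matrix.mul_assoc _ U, fr.uw, g2, add_sub_left_comm, ← g1, ← mul_add, add_sub_cancel, mul_one]
    have g4 : (W * E.val * U).det = 1 := by
      have := congrArg Units.val ((H59.det_glEquiv E).symm.trans he.2)
      rwa [GeneralLinearGroup.val_det_apply, g3, Matrix.mul_assoc U, det_one_add_mul_comm, Matrix.mul_assoc,
        fr.wu, Matrix.mul_one, add_sub_cancel] at this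
    let A : G3 F := GeneralLinearGroup.mkOfDetNeZero _ (g4.trans_ne one_ne_zero)
    obtain ⟨k, hk, e⟩ := big A ⟨res hF h3 h.om (RU s.md) c3 (RU s.my) (RU s.my') fr EU (by
      rw [← g2, ← sub_eq_zero, ← mul_one (pj d * E.val), mul_assoc _ (1 : Matrix _ _ F), one_mul, ← mul_sub,
        ← neg_sub, mul_neg, mul_assoc, g1, mul_sub, pp, mul_one, sub_self, neg_zero]) A rfl,
      mem_specialLinear.2 g4⟩
    exact ⟨k, hk, congrArg φ (Units.ext (e.trans g3.symm))⟩
  have m1 : ∀ k ∈ G, φ k ∈ M ∧ φ k ∈ H59.isom B := fun k hk => ⟨⟨k, hk, rfl⟩, (H59.mem_GU_iff hF 9 k).1 (hG hk)⟩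
  have hom : ∀ e ∈ R, e * d ≠ d * e → ∀ v ∈ uSub M B W₀, (e.val + e.val * e.val) *ᵥ v ∈ uSub M B W₀ := by
    intro e he n v hv
    have hh := m1 _ (h.hmem e he fun o => n (comm_of_mem_scalars o d))
    have hv' := hm_val (ω := ω) h.om.ne (h.cube e he)
    rcases good.map_eq_or H hh.1 hh.2 with c | c
    · have k : (hm ω e).val *ᵥ v ∈ uSub M B W₀ := c ▸ ⟨v, hv, rfl⟩
      rwa [hv', add_mulVec, one_mulVec, Submodule.add_mem_iff_right _ hv, smul_mulVec,
        Submodule.smul_mem_iff _ (sub_ne_zero.2 h.om.ne_one), pj, smul_mulVec,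
        Submodule.smul_mem_iff _ (inv_ne_zero h.om.ne), add_assoc, add_mulVec, one_mulVec,
        Submodule.add_mem_iff_right _ hv] at k
    exfalso
    have z : pj d * (hm ω e).val * pj d = 0 := mat_ext_mulVec fun v => (H.nondeg' _ fun w => by
      rw [← mulVec_mulVec, ← mulVec_mulVec, ← ad]
      exact c ⟨_, good.le_uSub H (w1 v), rfl⟩ _ (good.le_uSub H (w1 w))).trans (zero_mulVec v).symm
    have z1 := pj_mid h.toEx s.md he n
    have z2 := pj_mid h.toEx s.md (mul_mem he he) fun o => n (by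
      have := ((show Commute (e * e) d from o).pow_left 2).eq
      rwa [show (e * e) ^ 2 = e by rw [← sq, ← pow_mul, pow_succ, h.cube e he, one_mul]] at this)
    rw [Units.val_mul] at z2
    rw [hv', show pj e = _ from pj.eq_1 e] at z
    simp only [mul_add, add_mul, Matrix.mul_smul, Matrix.smul_mul, mul_one, pp, z1, z2, add_zero, smul_smul] at z
    have z3 := congrArg (fun m => (W * m * U) 0 0) z
    simp only [Matrix.mul_add, Matrix.add_mul, Matrix.mul_smul, Matrix.smul_mul, Matrix.mul_assoc, pU, fr.wu,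
      Matrix.zero_mul, Matrix.mul_zero, Matrix.add_apply, Matrix.smul_apply, one_apply_eq, Matrix.zero_apply,
      smul_eq_mul] at z3
    have := h.om.ne
    field_simp at z3
    exact this (by linear_combination h.om.eq - (ω - 1 : F) * z3)
  have top : uSub M B W₀ = ⊤ := by
    refine (h.spans.irr _ fun e he v hv => ?_).resolve_left fun o => ?_
    · by_cases n : e * d = d * e
      · have hh := m1 e (h.le he)
        have n' : e.val * pj d = pj d * e.val := by
          have : Commute e.val d.val := congrArg Units.val n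
          exact (((Commute.one_right _).add_right this).add_right (this.mul_right this)).smul_right _
        have k := map_uSub hh.1 hh.2 W₀
        rw [Submodule.eq_of_le_of_finrank_eq (S₂ := W₀) ?_ (LinearEquiv.finrank_map_eq _ _)] at k
        · exact k ▸ ⟨v, hv, rfl⟩
        rintro _ ⟨u, hu, rfl⟩
        have := w1 (e.val *ᵥ u)
        rwa [mulVec_mulVec, ← n', ← mulVec_mulVec, w2 u hu] at this
      have k1 := hom e he n v hv
      have k2 := hom _ (mul_mem h.wm he) (fun o => n (mul_left_cancel (a := sc _ ω) (by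
        rw [← mul_assoc, o, ← mul_assoc, ← mul_assoc, sc_comm]))) v hv
      have := Submodule.sub_mem _ (Submodule.smul_mem _ ((ω : F) * ω) k1) k2
      simp only [Units.val_mul, coe_sc, Matrix.smul_mul, Matrix.mul_smul, one_mul, add_mulVec, smul_mulVec,
        smul_smul, smul_add, add_sub_add_right_eq_sub, ← sub_smul] at this
      exact (Submodule.smul_mem_iff _ (by
        rw [← mul_sub_one]; exact mul_ne_zero ω.ne_zero (sub_ne_zero.2 h.om.ne_one))).1 this
    · have := Submodule.finrank_mono (good.le_uSub H)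
      rw [o, finrank_bot] at this
      omega
  obtain ⟨k, hk, e⟩ := good.mem_of_top H top (by simp) (φ g) ⟨(H59.mem_GU_iff hF 9 g).1 hg.1,
    (H59.det_glEquiv g).trans (Units.ext ((GeneralLinearGroup.val_det_apply g).trans (mem_specialLinear.1 hg.2)))⟩
  exact φ.injective e ▸ hk

end H6.FinU
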